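import Cfsg.Agent.Lib.Helper60.U64.Defs
import Cfsg.Agent.Lib.Helper45.HermGU
import Cfsg.Agent.Lib.Helper45.HermStab

/-!
# U64 [FRB]: unitary simultaneous normal form of a Pauli frame
-/

set_option autoImplicit false
set_option maxHeartbeats 1000000

namespace Cfsg.Agent.Lib.Helper37.U64

open Matrix Cfsg.Agent.Lib.Helper60.U64 Cfsg.Agent.Lib.Helper45

universe u

section
variable {F : Type u} [Field F] {q : ℕ}

/-- Eigenvectors of an isometry for the eigenvalues `1` and `-1` are orthogonal. -/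
theorem herm_eq_zero_of_signs [Fintype F] (hq : Odd q) (h2 : (2 : F) ≠ 0)
    {M : M4 F} (hM : IsHermIso 4 F q M) (x y : Fin 4 → F) (hx : M *ᵥ x = x) (hy : M *ᵥ y = -y) :
    Cfsg.hermForm 4 F q x y = 0 ∧ Cfsg.hermForm 4 F q y x = 0 := by
  have hneg : -y = (-1 : F) • y := by rw [neg_smul, one_smul]
  constructor
  · have h := hM x y
    rw [hx, hy, hneg, herm_smul_right, hq.neg_one_pow] at h
    have h1 : (2 : F) * Cfsg.hermForm 4 F q x y = 0 := by linear_combination -h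
    rcases mul_eq_zero.mp h1 with h3 | h3
    · exact absurd h3 h2
    · exact h3
  · have h := hM y x
    rw [hx, hy, hneg, herm_smul_left] at h
    have h1 : (2 : F) * Cfsg.hermForm 4 F q y x = 0 := by linear_combination -h
    rcases mul_eq_zero.mp h1 with h3 | h3
    · exact absurd h3 h2
    · exact h3

theorem mat_eq_of_cols {M N : M4 F} (h : ∀ j, M *ᵥ Pi.single j 1 = N *ᵥ Pi.single j 1) : M = N := by
  classical
  ext a j
  have := congrFun (h j) a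
  simpa [Matrix.mulVec_single_one] using this

theorem mA1_col (j : Fin 4) :
    mA1 F *ᵥ Pi.single j 1 = (![1, 1, -1, -1] : Fin 4 → F) j • Pi.single j (1 : F) := by
  ext a
  fin_cases j <;> fin_cases a <;> simp [mA1, Matrix.mulVec, dotProduct, Fin.sum_univ_four]

theorem mA2_col (j : Fin 4) :
    mA2 F *ᵥ Pi.single j 1 = (![1, -1, 1, -1] : Fin 4 → F) j • Pi.single j (1 : F) := by
  ext a
  fin_cases j <;> fin_cases a <;> simp [mA2, Matrix.mulVec, dotProduct, Fin.sum_univ_four]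

theorem mB1_col (j : Fin 4) :
    mB1 F *ᵥ Pi.single j 1 = Pi.single ((![2, 3, 0, 1] : Fin 4 → Fin 4) j) (1 : F) := by
  ext a
  fin_cases j <;> fin_cases a <;> simp [mB1, Matrix.mulVec, dotProduct, Fin.sum_univ_four]

theorem mB2_col (j : Fin 4) :
    mB2 F *ᵥ Pi.single j 1 = Pi.single ((![1, 0, 3, 2] : Fin 4 → Fin 4) j) (1 : F) := by
  ext a
  fin_cases j <;> fin_cases a <;> simp [mB2, Matrix.mulVec, dotProduct, Fin.sum_univ_four]

end

theorem pkgFrB : PkgFrB.{u} := by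
  intro F _ _ p hF hp hp2 a1 b1 a2 b2 ha1 hb1 ha2 hb2 hP
  classical
  obtain ⟨h11, h22, h33, h44, hab1, hab2, c12, c1b2, cb1a2, cb1b2⟩ := hP
  have hodd : Odd p := hp.odd_of_ne_two hp2
  have hp0 : p ≠ 0 := hp.ne_zero
  have h2 : (2 : F) ≠ 0 := by
    intro h
    obtain ⟨p', k, hp', hchar, hqk⟩ := q_prime_pow hF
    haveI := hchar
    have h2' : ((2 : ℕ) : F) = 0 := by exact_mod_cast h
    rw [CharP.cast_eq_zero_iff F p'] at h2'
    have hp'2 : p' = 2 := (Nat.prime_dvd_prime_iff_eq hp' Nat.prime_two).mp h2'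
    rw [hqk, hp'2] at hodd
    rcases Nat.eq_zero_or_pos k with hk | hk
    · subst hk
      rw [hqk] at hp
      simp at hp
      exact Nat.not_prime_one hp
    · exact (Nat.not_even_iff_odd.mpr hodd) (Nat.even_pow.mpr ⟨even_two, by omega⟩)
  have h4 : (4 : F) ≠ 0 := by
    have : (4 : F) = 2 * 2 := by norm_num
    rw [this]; exact mul_ne_zero h2 h2
  -- the matrices
  obtain ⟨A1, hA1⟩ : ∃ A1 : M4 F, A1 = (a1 : M4 F) := ⟨_, rfl⟩
  obtain ⟨B1, hB1⟩ : ∃ B1 : M4 F, B1 = (b1 : M4 F) := ⟨_, rfl⟩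
  obtain ⟨A2, hA2⟩ : ∃ A2 : M4 F, A2 = (a2 : M4 F) := ⟨_, rfl⟩
  obtain ⟨B2, hB2⟩ : ∃ B2 : M4 F, B2 = (b2 : M4 F) := ⟨_, rfl⟩
  have A1sq : A1 * A1 = 1 := by rw [hA1, ← Units.val_mul, h11]; rfl
  have B1sq : B1 * B1 = 1 := by rw [hB1, ← Units.val_mul, h22]; rfl
  have A2sq : A2 * A2 = 1 := by rw [hA2, ← Units.val_mul, h33]; rfl
  have B2sq : B2 * B2 = 1 := by rw [hB2, ← Units.val_mul, h44]; rfl
  have hAB1 : A1 * B1 = -(B1 * A1) := by rw [hA1, hB1]; exact hab1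
  have hAB2 : A2 * B2 = -(B2 * A2) := by rw [hA2, hB2]; exact hab2
  have hA12 : A1 * A2 = A2 * A1 := by rw [hA1, hA2, ← Units.val_mul, c12, Units.val_mul]
  have hA1B2 : A1 * B2 = B2 * A1 := by rw [hA1, hB2, ← Units.val_mul, c1b2, Units.val_mul]
  have hB1A2 : B1 * A2 = A2 * B1 := by rw [hB1, hA2, ← Units.val_mul, cb1a2, Units.val_mul]
  have hB12 : B1 * B2 = B2 * B1 := by rw [hB1, hB2, ← Units.val_mul, cb1b2, Units.val_mul]
  have iA1 : IsHermIso 4 F p A1 := by rw [hA1]; exact ha1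
  have iB1 : IsHermIso 4 F p B1 := by rw [hB1]; exact hb1
  have iA2 : IsHermIso 4 F p A2 := by rw [hA2]; exact ha2
  have iB2 : IsHermIso 4 F p B2 := by rw [hB2]; exact hb2
  -- the joint `+1`-eigenspace
  let W : Submodule F (Fin 4 → F) :=
    { carrier := {u | A1 *ᵥ u = u ∧ A2 *ᵥ u = u}
      add_mem' := by
        intro u v hu hv
        exact ⟨by rw [Matrix.mulVec_add, hu.1, hv.1], by rw [Matrix.mulVec_add, hu.2, hv.2]⟩
      zero_mem' := ⟨Matrix.mulVec_zero _, Matrix.mulVec_zero _⟩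
      smul_mem' := by
        intro c u hu
        exact ⟨by rw [Matrix.mulVec_smul, hu.1], by rw [Matrix.mulVec_smul, hu.2]⟩ }
  have hWmem : ∀ u, u ∈ W ↔ (A1 *ᵥ u = u ∧ A2 *ᵥ u = u) := fun u => Iff.rfl
  obtain ⟨S, hS⟩ : ∃ S : M4 F, S = 1 + A1 + A2 + A1 * A2 := ⟨_, rfl⟩
  have hA1S : A1 * S = S := by
    rw [hS, mul_add, mul_add, mul_add, mul_one, ← mul_assoc, A1sq, one_mul]
    abel
  have hA2S : A2 * S = S := by
    rw [hS, mul_add, mul_add, mul_add, mul_one, ← mul_assoc, ← hA12, mul_assoc, A2sq, mul_one]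
    abel
  have hSW : ∀ y, S *ᵥ y ∈ W := by
    intro y
    rw [hWmem]
    exact ⟨by rw [Matrix.mulVec_mulVec, hA1S], by rw [Matrix.mulVec_mulVec, hA2S]⟩
  -- non-degeneracy of `W`
  have hW : ∀ u ∈ W, (∀ v ∈ W, Cfsg.hermForm 4 F p u v = 0) → u = 0 := by
    intro u hu hperp
    obtain ⟨hu1, hu2⟩ := (hWmem u).1 hu
    funext k
    have h0 := hperp _ (hSW (Pi.single k 1))
    have e1 : ∀ y, Cfsg.hermForm 4 F p u (A1 *ᵥ y) = Cfsg.hermForm 4 F p u y := by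
      intro y
      have := iA1 u y
      rw [hu1] at this
      exact this
    have e2 : ∀ y, Cfsg.hermForm 4 F p u (A2 *ᵥ y) = Cfsg.hermForm 4 F p u y := by
      intro y
      have := iA2 u y
      rw [hu2] at this
      exact this
    rw [hS, Matrix.add_mulVec, Matrix.add_mulVec, Matrix.add_mulVec, Matrix.one_mulVec,
      ← Matrix.mulVec_mulVec, herm_add_right hF, herm_add_right hF, herm_add_right hF, e1, e1, e2,
      herm_single_right hp0] at h0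
    have h1 : (4 : F) * u k = 0 := by linear_combination h0
    rcases mul_eq_zero.mp h1 with h3 | h3
    · exact absurd h3 h4
    · exact h3
  -- `W ≠ ⊥` by a trace argument
  have tA1 : A1.trace = 0 := by
    have e : A1 = -(B1 * A1 * B1) := by
      have : B1 * A1 * B1 = -A1 := by
        rw [mul_assoc, hAB1, mul_neg, ← mul_assoc, B1sq, one_mul]
      rw [this, neg_neg]
    have t : (B1 * A1 * B1).trace = A1.trace := by
      rw [Matrix.trace_mul_comm, ← mul_assoc, B1sq, one_mul]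
    have t2 : A1.trace = -A1.trace := by
      conv_lhs => rw [e]
      rw [Matrix.trace_neg, t]
    have h1 : (2 : F) * A1.trace = 0 := by linear_combination t2
    rcases mul_eq_zero.mp h1 with h3 | h3
    · exact absurd h3 h2
    · exact h3
  have tA2 : A2.trace = 0 := by
    have e : A2 = -(B2 * A2 * B2) := by
      have : B2 * A2 * B2 = -A2 := by
        rw [mul_assoc, hAB2, mul_neg, ← mul_assoc, B2sq, one_mul]
      rw [this, neg_neg]
    have t : (B2 * A2 * B2).trace = A2.trace := by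
      rw [Matrix.trace_mul_comm, ← mul_assoc, B2sq, one_mul]
    have t2 : A2.trace = -A2.trace := by
      conv_lhs => rw [e]
      rw [Matrix.trace_neg, t]
    have h1 : (2 : F) * A2.trace = 0 := by linear_combination t2
    rcases mul_eq_zero.mp h1 with h3 | h3
    · exact absurd h3 h2
    · exact h3
  have tA12 : (A1 * A2).trace = 0 := by
    have e : A1 * A2 = -(B1 * (A1 * A2) * B1) := by
      have : B1 * (A1 * A2) * B1 = -(A1 * A2) := by
        rw [mul_assoc, mul_assoc, ← hB1A2, ← mul_assoc A1, hAB1, neg_mul, mul_neg, mul_assoc,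
          ← mul_assoc B1 B1, B1sq, one_mul]
      rw [this, neg_neg]
    have t : (B1 * (A1 * A2) * B1).trace = (A1 * A2).trace := by
      rw [Matrix.trace_mul_comm, ← mul_assoc, B1sq, one_mul]
    have t2 : (A1 * A2).trace = -(A1 * A2).trace := by
      conv_lhs => rw [e]
      rw [Matrix.trace_neg, t]
    have h1 : (2 : F) * (A1 * A2).trace = 0 := by linear_combination t2
    rcases mul_eq_zero.mp h1 with h3 | h3
    · exact absurd h3 h2
    · exact h3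
  have tS : S.trace = 4 := by
    rw [hS, Matrix.trace_add, Matrix.trace_add, Matrix.trace_add, tA1, tA2, tA12, Matrix.trace_one]
    simp
  have hne : W ≠ ⊥ := by
    intro hbot
    have hS0 : S = 0 := by
      apply mat_eq_of_cols
      intro j
      have := hSW (Pi.single j 1)
      rw [hbot, Submodule.mem_bot] at this
      rw [this, Matrix.zero_mulVec]
    rw [hS0, Matrix.trace_zero] at tS
    exact h4 tS.symm
  obtain ⟨v, hvW, hv1⟩ := exists_norm_one_mem hF W hW hne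
  obtain ⟨hv1', hv2'⟩ := (hWmem v).1 hvW
  -- the frame
  obtain ⟨e1, he1⟩ : ∃ e1 : Fin 4 → F, e1 = B2 *ᵥ v := ⟨_, rfl⟩
  obtain ⟨e2, he2⟩ : ∃ e2 : Fin 4 → F, e2 = B1 *ᵥ v := ⟨_, rfl⟩
  obtain ⟨e3, he3⟩ : ∃ e3 : Fin 4 → F, e3 = B1 *ᵥ (B2 *ᵥ v) := ⟨_, rfl⟩
  -- action of A1
  have a1e1 : A1 *ᵥ e1 = e1 := by
    rw [he1, Matrix.mulVec_mulVec, hA1B2, ← Matrix.mulVec_mulVec, hv1']
  have a1e2 : A1 *ᵥ e2 = -e2 := by
    rw [he2, Matrix.mulVec_mulVec, hAB1, Matrix.neg_mulVec, ← Matrix.mulVec_mulVec, hv1']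
  have a1e3 : A1 *ᵥ e3 = -e3 := by
    rw [he3, Matrix.mulVec_mulVec, hAB1, Matrix.neg_mulVec, ← Matrix.mulVec_mulVec, ← he1, a1e1]
  -- action of A2
  have a2e1 : A2 *ᵥ e1 = -e1 := by
    rw [he1, Matrix.mulVec_mulVec, hAB2, Matrix.neg_mulVec, ← Matrix.mulVec_mulVec, hv2']
  have a2e2 : A2 *ᵥ e2 = e2 := by
    rw [he2, Matrix.mulVec_mulVec, ← hB1A2, ← Matrix.mulVec_mulVec, hv2']
  have a2e3 : A2 *ᵥ e3 = -e3 := by
    rw [he3, Matrix.mulVec_mulVec, ← hB1A2, ← Matrix.mulVec_mulVec, ← he1, a2e1,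
      Matrix.mulVec_neg]
  -- action of B1
  have b1v : B1 *ᵥ v = e2 := he2.symm
  have b1e1 : B1 *ᵥ e1 = e3 := by rw [he3, he1]
  have b1e2 : B1 *ᵥ e2 = v := by rw [he2, Matrix.mulVec_mulVec, B1sq, Matrix.one_mulVec]
  have b1e3 : B1 *ᵥ e3 = e1 := by rw [he3, Matrix.mulVec_mulVec, B1sq, Matrix.one_mulVec, he1]
  -- action of B2
  have b2v : B2 *ᵥ v = e1 := he1.symm
  have b2e1 : B2 *ᵥ e1 = v := by rw [he1, Matrix.mulVec_mulVec, B2sq, Matrix.one_mulVec]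
  have b2e2 : B2 *ᵥ e2 = e3 := by
    rw [he2, he3, Matrix.mulVec_mulVec, ← hB12, ← Matrix.mulVec_mulVec]
  have b2e3 : B2 *ᵥ e3 = e2 := by
    have hbb : B2 *ᵥ (B2 *ᵥ v) = v := by rw [Matrix.mulVec_mulVec, B2sq, Matrix.one_mulVec]
    rw [he3, Matrix.mulVec_mulVec, ← hB12, ← Matrix.mulVec_mulVec, hbb, he2]
  -- Gram matrix
  have n1 : Cfsg.hermForm 4 F p e1 e1 = 1 := by rw [he1, iB2 v v, hv1]
  have n2 : Cfsg.hermForm 4 F p e2 e2 = 1 := by rw [he2, iB1 v v, hv1]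
  have n3 : Cfsg.hermForm 4 F p e3 e3 = 1 := by rw [he3, iB1, iB2 v v, hv1]
  have o01 := herm_eq_zero_of_signs hodd h2 iA2 v e1 hv2' a2e1
  have o02 := herm_eq_zero_of_signs hodd h2 iA1 v e2 hv1' a1e2
  have o03 := herm_eq_zero_of_signs hodd h2 iA1 v e3 hv1' a1e3
  have o12 := herm_eq_zero_of_signs hodd h2 iA1 e1 e2 a1e1 a1e2
  have o13 := herm_eq_zero_of_signs hodd h2 iA1 e1 e3 a1e1 a1e3
  have o23 := herm_eq_zero_of_signs hodd h2 iA2 e2 e3 a2e2 a2e3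
  -- the matrix with columns `v, e1, e2, e3`
  obtain ⟨G, hG⟩ : ∃ G : M4 F, G = Matrix.of (fun a j => (![v, e1, e2, e3] : Fin 4 → Fin 4 → F) j a) :=
    ⟨_, rfl⟩
  have hGv : ∀ x : Fin 4 → F, G *ᵥ x = x 0 • v + x 1 • e1 + x 2 • e2 + x 3 • e3 := by
    intro x
    funext a
    simp [hG, Matrix.mulVec, dotProduct, Fin.sum_univ_four]
    ring
  have hiso : IsHermIso 4 F p G := by
    intro x y
    rw [hGv, hGv]
    simp only [herm_add_left, herm_add_right hF, herm_smul_left, herm_smul_right]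
    rw [hv1, n1, n2, n3, o01.1, o01.2, o02.1, o02.2, o03.1, o03.2, o12.1, o12.2, o13.1, o13.2,
      o23.1, o23.2]
    simp [herm_def, Fin.sum_univ_four]
    ring
  have hc0 : G *ᵥ Pi.single 0 1 = v := by rw [hGv]; simp
  have hc1 : G *ᵥ Pi.single 1 1 = e1 := by rw [hGv]; simp
  have hc2 : G *ᵥ Pi.single 2 1 = e2 := by rw [hGv]; simp
  have hc3 : G *ᵥ Pi.single 3 1 = e3 := by rw [hGv]; simp
  have hunit := isHermIso_isUnit hF hiso
  refine ⟨hunit.unit, hiso, ?_, ?_, ?_, ?_⟩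
  · show (a1 : M4 F) * G = G * mA1 F
    rw [← hA1]
    apply mat_eq_of_cols
    intro j
    rw [← Matrix.mulVec_mulVec, ← Matrix.mulVec_mulVec, mA1_col, Matrix.mulVec_smul]
    fin_cases j
    · show A1 *ᵥ (G *ᵥ Pi.single 0 1) = (1 : F) • (G *ᵥ Pi.single 0 1)
      rw [hc0, hv1', one_smul]
    · show A1 *ᵥ (G *ᵥ Pi.single 1 1) = (1 : F) • (G *ᵥ Pi.single 1 1)
      rw [hc1, a1e1, one_smul]
    · show A1 *ᵥ (G *ᵥ Pi.single 2 1) = (-1 : F) • (G *ᵥ Pi.single 2 1)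
      rw [hc2, a1e2, neg_smul, one_smul]
    · show A1 *ᵥ (G *ᵥ Pi.single 3 1) = (-1 : F) • (G *ᵥ Pi.single 3 1)
      rw [hc3, a1e3, neg_smul, one_smul]
  · show (a2 : M4 F) * G = G * mA2 F
    rw [← hA2]
    apply mat_eq_of_cols
    intro j
    rw [← Matrix.mulVec_mulVec, ← Matrix.mulVec_mulVec, mA2_col, Matrix.mulVec_smul]
    fin_cases j
    · show A2 *ᵥ (G *ᵥ Pi.single 0 1) = (1 : F) • (G *ᵥ Pi.single 0 1)
      rw [hc0, hv2', one_smul]
    · show A2 *ᵥ (G *ᵥ Pi.single 1 1) = (-1 : F) • (G *ᵥ Pi.single 1 1)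
      rw [hc1, a2e1, neg_smul, one_smul]
    · show A2 *ᵥ (G *ᵥ Pi.single 2 1) = (1 : F) • (G *ᵥ Pi.single 2 1)
      rw [hc2, a2e2, one_smul]
    · show A2 *ᵥ (G *ᵥ Pi.single 3 1) = (-1 : F) • (G *ᵥ Pi.single 3 1)
      rw [hc3, a2e3, neg_smul, one_smul]
  · show (b1 : M4 F) * G = G * mB1 F
    rw [← hB1]
    apply mat_eq_of_cols
    intro j
    rw [← Matrix.mulVec_mulVec, ← Matrix.mulVec_mulVec, mB1_col]
    fin_cases j
    · show B1 *ᵥ (G *ᵥ Pi.single 0 1) = G *ᵥ Pi.single 2 1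
      rw [hc0, hc2, b1v]
    · show B1 *ᵥ (G *ᵥ Pi.single 1 1) = G *ᵥ Pi.single 3 1
      rw [hc1, hc3, b1e1]
    · show B1 *ᵥ (G *ᵥ Pi.single 2 1) = G *ᵥ Pi.single 0 1
      rw [hc2, hc0, b1e2]
    · show B1 *ᵥ (G *ᵥ Pi.single 3 1) = G *ᵥ Pi.single 1 1
      rw [hc3, hc1, b1e3]
  · show (b2 : M4 F) * G = G * mB2 F
    rw [← hB2]
    apply mat_eq_of_cols
    intro j
    rw [← Matrix.mulVec_mulVec, ← Matrix.mulVec_mulVec, mB2_col]
    fin_cases j
    · show B2 *ᵥ (G *ᵥ Pi.single 0 1) = G *ᵥ Pi.single 1 1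
      rw [hc0, hc1, b2v]
    · show B2 *ᵥ (G *ᵥ Pi.single 1 1) = G *ᵥ Pi.single 0 1
      rw [hc1, hc0, b2e1]
    · show B2 *ᵥ (G *ᵥ Pi.single 2 1) = G *ᵥ Pi.single 3 1
      rw [hc2, hc3, b2e2]
    · show B2 *ᵥ (G *ᵥ Pi.single 3 1) = G *ᵥ Pi.single 2 1
      rw [hc3, hc2, b2e3]

end Cfsg.Agent.Lib.Helper37.U64
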